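import Cfsg.Agent.S0817
import Cfsg.Agent.Class.Orth.ThreeTr
import Cfsg.Agent.Class.Orth.OmegaIndex

/-!
# S3320, part IIa: a group with `Ω⁺₁₀(2)` of index two and trivial centraliser (about 80 lines)
-/

set_option autoImplicit false

namespace Cfsg.Agent.L10.F

open Cfsg Subgroup

/-- `MulAut.conjNormal : G →* MulAut H` is injective (kernel in the centraliser), and
`|G| = 2 |H|`; `MulEquiv.ofBijective`, `Function.Injective.bijective_of_nat_card_le`. -/
theorem aut_of_index {G : Type*} [Group G] [Finite G] {H : Subgroup G} (hi : H.index = 2)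
    (hc : centralizer (H : Set G) = ⊥) (ha : Nat.card (MulAut H) = 2 * Nat.card H) :
    Nonempty (G ≃* MulAut H) := by
  haveI : H.Normal := normal_of_index_eq_two hi
  have hinj : Function.Injective (MulAut.conjNormal : G →* MulAut H) := by
    rw [injective_iff_map_eq_one]
    intro g hg
    have hgc : g ∈ centralizer (H : Set G) := by
      rw [mem_centralizer_iff]
      intro h hh
      have h1 : ((MulAut.conjNormal g (⟨h, hh⟩ : H) : H) : G) = h := by rw [hg]; rfl
      rw [MulAut.conjNormal_apply] at h1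
      have h2 : g * h * g⁻¹ = h := h1
      calc h * g = g * h * g⁻¹ * g := by rw [h2]
        _ = g * h := by group
    rwa [hc, mem_bot] at hgc
  have hle : Nat.card (MulAut H) ≤ Nat.card G := by
    rw [ha, ← H.index_mul_card, hi]
  exact ⟨MulEquiv.ofBijective _ (hinj.bijective_of_nat_card_le hle)⟩

/-- Let `O` be the isometry group, `Ω = commutator O`.  With `e = Class.Orth.isoEquiv (plusQF 5 _) _
(plusQF_apply 5 _)`: the index is 2 (`index_commutator_equiv`, `ND.index_commutator_eq_two`,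
`nd_plusQF`, `finrank_plus_space`; see `S0789`), the centraliser of `Ω` is trivial
(`ND.eq_one_or_negOne_of_comm`, `mem_commutator_equiv`; `negOne = 1` in characteristic 2), so the
centre of `Ω` is trivial, `Ω ≃* POmega` (`QuotientGroup.quotientMulEquivOfEq`, `quotientBot`) and
`S0817.result 2 1` gives `|Aut Ω| = 2 |Ω|` (`MulAut.congr`).  Apply `aut_of_index` to `O` and to
`G`. -/
theorem iso_O {G : Type*} [Group G] [Finite G] {H : Subgroup G} (hi : H.index = 2)
    (hc : centralizer (H : Set G) = ⊥)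
    (e : H ≃* ↥(Cfsg.Omega (ZMod 2) (Cfsg.quadFormPlus 5 (ZMod 2)))) :
    Nonempty (G ≃* ↥(Cfsg.isometryGroup (ZMod 2) (Cfsg.quadFormPlus 5 (ZMod 2)))) := by
  have h2 : (2 : ZMod 2) = 0 := CharTwo.two_eq_zero
  have hr : Module.finrank (ZMod 2) (Fin 5 ⊕ Fin 5 → ZMod 2) = 10 := by simp
  have hQ := Class.Orth.nd_plusQF 5 (ZMod 2)
  let ε := Class.Orth.plusEquiv 5 (ZMod 2)
  have hiO : (Cfsg.Omega (ZMod 2) (Cfsg.quadFormPlus 5 (ZMod 2))).index = 2 := by
    rw [Class.Orth.index_commutator_equiv ε]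
    exact hQ.index_commutator_eq_two h2 (by omega) (Or.inr (by omega))
  have hcO : centralizer ((Cfsg.Omega (ZMod 2) (Cfsg.quadFormPlus 5 (ZMod 2)) :
      Subgroup ↥(Cfsg.isometryGroup (ZMod 2) (Cfsg.quadFormPlus 5 (ZMod 2)))) :
      Set ↥(Cfsg.isometryGroup (ZMod 2) (Cfsg.quadFormPlus 5 (ZMod 2)))) = ⊥ := by
    rw [eq_bot_iff]
    intro g hg
    rw [mem_centralizer_iff] at hg
    have hcomm : ∀ k ∈ commutator (Class.Orth.OG (Class.Orth.plusQF 5 (ZMod 2))),
        ε g * k = k * ε g := by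
      intro k hk
      have hk' : ε.symm k ∈ Cfsg.Omega (ZMod 2) (Cfsg.quadFormPlus 5 (ZMod 2)) := by
        rw [← Class.Orth.mem_commutator_equiv ε, MulEquiv.apply_symm_apply]
        exact hk
      have := congrArg ε (hg _ hk')
      rw [map_mul, map_mul, MulEquiv.apply_symm_apply] at this
      exact this.symm
    have hneg : Class.Orth.negOne (Class.Orth.plusQF 5 (ZMod 2)) = 1 :=
      Class.Orth.OG.ext fun x => by
        rw [Class.Orth.negOne_apply, Class.Orth.OG.one_apply, neg_eq_iff_add_eq_zero,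
          ← two_smul (ZMod 2), h2, zero_smul]
    have h1 : ε g = 1 := by
      rcases hQ.eq_one_or_negOne_of_comm (by omega) hcomm with h | h
      · exact h
      · rw [h, hneg]
    rw [mem_bot]
    exact ε.injective (by rw [h1, map_one])
  have hZ : center ↥(Cfsg.Omega (ZMod 2) (Cfsg.quadFormPlus 5 (ZMod 2))) = ⊥ := by
    rw [eq_bot_iff]
    intro z hz
    rw [mem_center_iff] at hz
    have hz' : (z : ↥(Cfsg.isometryGroup (ZMod 2) (Cfsg.quadFormPlus 5 (ZMod 2)))) ∈
        centralizer ((Cfsg.Omega (ZMod 2) (Cfsg.quadFormPlus 5 (ZMod 2)) :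
          Subgroup ↥(Cfsg.isometryGroup (ZMod 2) (Cfsg.quadFormPlus 5 (ZMod 2)))) :
          Set ↥(Cfsg.isometryGroup (ZMod 2) (Cfsg.quadFormPlus 5 (ZMod 2)))) := by
      rw [mem_centralizer_iff]
      intro k hk
      exact congrArg Subtype.val (hz ⟨k, hk⟩)
    rw [hcO, mem_bot] at hz'
    rw [mem_bot]
    exact Subtype.ext hz'
  let η : Cfsg.POmega (ZMod 2) (Cfsg.quadFormPlus 5 (ZMod 2)) ≃*
      ↥(Cfsg.Omega (ZMod 2) (Cfsg.quadFormPlus 5 (ZMod 2))) :=
    (QuotientGroup.quotientMulEquivOfEq hZ).trans QuotientGroup.quotientBot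
  have hA := S0817.result (F := ZMod 2) 2 1 le_rfl (by simp) 5 (by norm_num)
  rw [if_neg (by norm_num), if_pos rfl] at hA
  have haO : Nat.card (MulAut ↥(Cfsg.Omega (ZMod 2) (Cfsg.quadFormPlus 5 (ZMod 2)))) =
      2 * Nat.card ↥(Cfsg.Omega (ZMod 2) (Cfsg.quadFormPlus 5 (ZMod 2))) := by
    rw [← Nat.card_congr (MulAut.congr η).toEquiv, ← Nat.card_congr η.toEquiv, hA]
  have haH : Nat.card (MulAut H) = 2 * Nat.card H := by
    rw [Nat.card_congr (MulAut.congr e).toEquiv, Nat.card_congr e.toEquiv, haO]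
  obtain ⟨a⟩ := aut_of_index hi hc haH
  obtain ⟨b⟩ := aut_of_index hiO hcO haO
  exact ⟨(a.trans (MulAut.congr e)).trans b.symm⟩

end Cfsg.Agent.L10.F
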