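import Cfsg.Agent.SylT.UT5
import Cfsg.Agent.He5.IdSL

/-!
# S3320: the coded model `Mo = 2^10 : L₅(2)` (guide `96_s3320_h24`)

An element is `(a, x)` with `a` the 25-bit code (bit `5 i + j`) of an alternating matrix and `x`
the code of an invertible matrix (`y` is the code of its inverse);
`(a, x) (b, u) = (a + x b xᵀ, x u)`.  Finite facts are proved by `decide +kernel`.
-/

set_option autoImplicit false

namespace Cfsg.Agent.L10

open Cfsg.Agent.Comp Cfsg.Agent.He5 Subgroup Matrix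

/-- column `j` placed as the row starting at bit `j5` -/
def tc (x j j5 : ℕ) : ℕ :=
  Nat.shiftLeft (Nat.land (Nat.shiftRight (Nat.mul (Nat.land (Nat.shiftRight x j) (nat_lit 1082401))
    (nat_lit 69905)) (nat_lit 16)) (nat_lit 31)) j5

/-- transpose of a code -/
noncomputable def tp (x : ℕ) : ℕ := force x fun x =>
  Nat.lor (Nat.lor (Nat.lor (Nat.lor (tc x (nat_lit 0) (nat_lit 0)) (tc x (nat_lit 1) (nat_lit 5)))
    (tc x (nat_lit 2) (nat_lit 10))) (tc x (nat_lit 3) (nat_lit 15))) (tc x (nat_lit 4) (nat_lit 20))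

theorem gather_aux : ∀ b0 b1 b2 b3 b4 : Bool, ∀ k < 5,
    (((b0.toNat * 2 ^ 0 ||| (b1.toNat * 2 ^ 5 ||| (b2.toNat * 2 ^ 10 ||| (b3.toNat * 2 ^ 15 |||
      b4.toNat * 2 ^ 20)))) * 69905) >>> 16).testBit k = [b0, b1, b2, b3, b4].getD k false := by
  decide +kernel

theorem tc_bit (x j j5 n : ℕ) : (tc x j j5).testBit n =
    (decide (j5 ≤ n) && (decide (n - j5 < 5) && x.testBit (5 * (n - j5) + j))) := by
  have e : tc x j j5 = (((((x >>> j) &&& (2 ^ 0 ||| (2 ^ 5 ||| (2 ^ 10 ||| (2 ^ 15 ||| 2 ^ 20))))) *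
      69905) >>> 16) &&& (2 ^ 5 - 1)) <<< j5 := rfl
  rw [e, Nat.testBit_shiftLeft, Nat.testBit_and, Nat.testBit_two_pow_sub_one]
  by_cases h : n - j5 < 5
  · simp only [Nat.and_or_distrib_left, Nat.and_two_pow]
    rw [gather_aux _ _ _ _ _ _ h]
    generalize n - j5 = k at h ⊢
    simp only [Nat.testBit_shiftRight]
    interval_cases k <;> simp [add_comm]
  · simp [h]

theorem tp_bit (x n : ℕ) : (tp x).testBit n = (decide (n < 25) && x.testBit (5 * (n % 5) + n / 5)) := by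
  have e : tp x = tc x 0 0 ||| tc x 1 5 ||| tc x 2 10 ||| tc x 3 15 ||| tc x 4 20 := force_eq _ _
  rw [e]
  simp only [Nat.testBit_or, tc_bit]
  by_cases h : n < 25
  · interval_cases n <;> simp
  · have : ¬ n - 20 < 5 := by omega
    have : ¬ n - 15 < 5 := by omega
    have : ¬ n - 10 < 5 := by omega
    have : ¬ n - 5 < 5 := by omega
    have : ¬ n < 5 := by omega
    simp [*]

theorem tp_lt (x : ℕ) : tp x < 2 ^ 25 :=
  Nat.lt_pow_two_of_testBit _ fun i hi => by rw [tp_bit]; simp [not_lt.2 hi]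

theorem dec_tp (x : ℕ) : dec (tp x) = (dec x)ᵀ := by
  ext i j
  have hi := i.2
  have hj := j.2
  simp only [dec, transpose_apply, of_apply, tp_bit, show 5 * (i : ℕ) + j < 25 by omega, decide_true,
    Bool.true_and, show (5 * (i : ℕ) + j) % 5 = j by omega, show (5 * (i : ℕ) + j) / 5 = i by omega]

theorem dec_xor (x y : ℕ) : dec (x ^^^ y) = dec x + dec y := by
  ext i j
  simp only [dec, of_apply, Matrix.add_apply, Nat.testBit_xor, ite_xor]

theorem dec_zero : dec 0 = 0 := by decide +kernel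

theorem xor_lt {x y : ℕ} (hx : x < 2 ^ 25) (hy : y < 2 ^ 25) : x ^^^ y < 2 ^ 25 :=
  Nat.xor_lt_two_pow hx hy

theorem and_eq_zero_iff {a : ℕ} (ha : a < 2 ^ 25) (m : ℕ) :
    a &&& m = 0 ↔ ∀ i j : Fin 5, m.testBit (5 * i + j) = true → dec a i j = 0 := by
  constructor
  · intro h i j hm
    have := congrArg (·.testBit (5 * i + j)) h
    simp only [Nat.testBit_and, hm, Bool.and_true, Nat.zero_testBit] at this
    simp [dec, this]
  · intro h
    refine Nat.eq_of_testBit_eq fun n => ?_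
    rw [Nat.testBit_and, Nat.zero_testBit]
    by_cases hn : n < 25
    · have := h ⟨n / 5, by omega⟩ ⟨n % 5, by omega⟩
      simp only [dec, of_apply, Nat.div_add_mod] at this
      revert this
      cases a.testBit n <;> cases m.testBit n <;> decide
    · rw [Nat.testBit_lt_two_pow (ha.trans_le (Nat.pow_le_pow_right two_pos (by omega)))]; rfl

theorem xand_eq_zero_iff {x : ℕ} (hx : x < 2 ^ 25) (m : ℕ) : (x ^^^ o5) &&& m = 0 ↔
    ∀ i j : Fin 5, m.testBit (5 * i + j) = true → dec x i j = if i = j then 1 else 0 := by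
  rw [and_eq_zero_iff (xor_lt hx (by decide)), dec_xor, dec_o5]
  refine forall₃_congr fun i j _ => ?_
  rw [Matrix.add_apply, Matrix.one_apply]
  generalize dec x i j = c
  revert c
  split_ifs <;> decide

/-- alternating matrices -/
def Alt (M : Matrix (Fin 5) (Fin 5) (ZMod 2)) : Prop := Mᵀ = M ∧ ∀ i, M i i = 0

theorem Alt.act {M : Matrix (Fin 5) (Fin 5) (ZMod 2)} (h : Alt M)
    (X : Matrix (Fin 5) (Fin 5) (ZMod 2)) : Alt (X * M * Xᵀ) := by
  refine ⟨by rw [transpose_mul, transpose_mul, transpose_transpose, h.1, Matrix.mul_assoc], fun i => ?_⟩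
  let N : Matrix (Fin 5) (Fin 5) (ZMod 2) := of fun i j => if i < j then M i j else 0
  have e : M = N + Nᵀ := by
    ext i j
    have := congrFun (congrFun h.1 i) j
    rw [transpose_apply] at this
    rcases lt_trichotomy i j with l | rfl | l
    · simp [N, l, l.not_gt]
    · simp [N, h.2]
    · simp [N, l, l.not_gt, this]
  have e2 : X * Nᵀ * Xᵀ = (X * N * Xᵀ)ᵀ := by
    rw [transpose_mul, transpose_mul, transpose_transpose, Matrix.mul_assoc]
  rw [e, Matrix.mul_add, Matrix.add_mul, e2, Matrix.add_apply, transpose_apply, CharTwo.add_self_eq_zero]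

theorem Alt.add {M N : Matrix (Fin 5) (Fin 5) (ZMod 2)} (h : Alt M) (k : Alt N) : Alt (M + N) :=
  ⟨by rw [transpose_add, h.1, k.1], fun i => by rw [Matrix.add_apply, h.2, k.2, add_zero]⟩

/-- validity test -/
noncomputable def okB (a x y : ℕ) : Bool :=
  and' (and' (Nat.blt x (nat_lit 33554432)) (Nat.blt y (nat_lit 33554432)))
    (and' (and' (Nat.beq (tp a) a) (Nat.beq (Nat.land a o5) (nat_lit 0))) (Nat.beq (mu x y) o5))

structure Ok (a x y : ℕ) : Prop where
  a_lt : a < 2 ^ 25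
  x_lt : x < 2 ^ 25
  y_lt : y < 2 ^ 25
  alt : Alt (dec a)
  inv : mu x y = o5

theorem o5_bit : ∀ i j : Fin 5, o5.testBit (5 * i + j) = true ↔ i = j := by decide +kernel

theorem alt_iff {a : ℕ} (ha : a < 2 ^ 25) : Alt (dec a) ↔ tp a = a ∧ a &&& o5 = 0 :=
  ⟨fun h => ⟨dec_inj (tp_lt a) ha (by rw [dec_tp, h.1]), (and_eq_zero_iff ha _).2 fun i j e => by
    rw [(o5_bit i j).1 e]; exact h.2 j⟩, fun h => ⟨by rw [← dec_tp, h.1], fun i =>
      (and_eq_zero_iff ha _).1 h.2 i i ((o5_bit i i).2 rfl)⟩⟩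

theorem Ok.of {a x y : ℕ} (h : okB a x y = true) : Ok a x y := by
  simp only [okB, and'_eq_true, blt_iff, beq_iff] at h
  have ha : a < 2 ^ 25 := h.2.1.1 ▸ tp_lt a
  exact ⟨ha, h.1.1, h.1.2, (alt_iff ha).2 h.2.1, h.2.2⟩

theorem dec_inv {x y : ℕ} (h : mu x y = o5) : dec x * dec y = 1 ∧ dec y * dec x = 1 := by
  have e : dec x * dec y = 1 := by rw [← dec_mu, h, dec_o5]
  exact ⟨e, mul_eq_one_comm.1 e⟩

/-- the model of `2^10 : L₅(2)` -/
structure Mo where
  a : ℕ
  x : ℕ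
  y : ℕ
  ok : Ok a x y

/-- the action `x b xᵀ` on codes -/
noncomputable def ac (x b : ℕ) : ℕ := mu (mu x b) (tp x)

theorem dec_ac (x b : ℕ) : dec (ac x b) = dec x * dec b * (dec x)ᵀ := by
  rw [ac, dec_mu, dec_mu, dec_tp]

theorem ac_lt (x b : ℕ) : ac x b < 2 ^ 25 := mu_lt _ _

theorem o5_lt : o5 < 2 ^ 25 := by decide

namespace Mo

theorem ext {g h : Mo} (ha : g.a = h.a) (hx : g.x = h.x) : g = h := by
  obtain ⟨a, x, y, k⟩ := g
  obtain ⟨a', x', y', k'⟩ := h
  simp only at ha hx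
  subst ha hx
  have : y = y' := dec_inj k.y_lt k'.y_lt (by
    rw [← Matrix.mul_one (dec y), ← (dec_inv k'.inv).1, ← Matrix.mul_assoc, (dec_inv k.inv).2,
      Matrix.one_mul])
  subst this
  rfl

theorem ext' {g h : Mo} (ha : dec g.a = dec h.a) (hx : dec g.x = dec h.x) : g = h :=
  ext (dec_inj g.ok.a_lt h.ok.a_lt ha) (dec_inj g.ok.x_lt h.ok.x_lt hx)

noncomputable instance instMul : Mul Mo := ⟨fun g h => ⟨Nat.xor g.a (ac g.x h.a), mu g.x h.x, mu h.y g.y,
  xor_lt g.ok.a_lt (ac_lt _ _), mu_lt _ _, mu_lt _ _,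
  by rw [show Nat.xor g.a _ = g.a ^^^ _ from rfl, dec_xor, dec_ac]; exact g.ok.alt.add (h.ok.alt.act _),
  dec_inj (mu_lt _ _) o5_lt (by
    rw [dec_mu, dec_mu, dec_mu, Matrix.mul_assoc, ← Matrix.mul_assoc (dec h.x), (dec_inv h.ok.inv).1,
      Matrix.one_mul, (dec_inv g.ok.inv).1, dec_o5])⟩⟩

instance instOne : One Mo := ⟨⟨nat_lit 0, o5, o5, Ok.of (by decide +kernel)⟩⟩

noncomputable instance instInv : Inv Mo := ⟨fun g => ⟨ac g.y g.a, g.y, g.x, ac_lt _ _, g.ok.y_lt,
  g.ok.x_lt, by rw [dec_ac]; exact g.ok.alt.act _,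
  dec_inj (mu_lt _ _) o5_lt (by rw [dec_mu, (dec_inv g.ok.inv).2, dec_o5])⟩⟩

theorem mul_a (g h : Mo) : (g * h).a = g.a ^^^ ac g.x h.a := rfl
theorem mul_x (g h : Mo) : (g * h).x = mu g.x h.x := rfl
theorem mul_y (g h : Mo) : (g * h).y = mu h.y g.y := rfl
theorem one_a : (1 : Mo).a = 0 := rfl
theorem one_x : (1 : Mo).x = o5 := rfl
theorem inv_a (g : Mo) : g⁻¹.a = ac g.y g.a := rfl
theorem inv_x (g : Mo) : g⁻¹.x = g.y := rfl

theorem dec_mul_a (g h : Mo) : dec (g * h).a = dec g.a + dec g.x * dec h.a * (dec g.x)ᵀ := by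
  rw [mul_a, dec_xor, dec_ac]

theorem dec_mul_x (g h : Mo) : dec (g * h).x = dec g.x * dec h.x := dec_mu _ _

noncomputable instance instGroup : Group Mo :=
  Group.ofLeftAxioms (fun f g h => ext' (by
      simp only [dec_mul_a, dec_mul_x, Matrix.mul_add, Matrix.add_mul, transpose_mul,
        Matrix.mul_assoc, add_assoc]) (by simp only [dec_mul_x, Matrix.mul_assoc]))
    (fun g => ext' (by rw [dec_mul_a, one_a, one_x, dec_zero, dec_o5]; simp)
      (by rw [dec_mul_x, one_x, dec_o5, Matrix.one_mul]))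
    fun g => ext' (by
      rw [dec_mul_a, inv_a, inv_x, dec_ac, one_a, dec_zero]
      ext i j
      exact CharTwo.add_self_eq_zero _) (by
      rw [dec_mul_x, inv_x, (dec_inv g.ok.inv).2, one_x, dec_o5])

instance instDecEq : DecidableEq Mo := fun g h =>
  decidable_of_iff (Nat.beq g.a h.a = true ∧ Nat.beq g.x h.x = true)
    ⟨fun e => ext ((beq_iff _ _).1 e.1) ((beq_iff _ _).1 e.2), fun e => by simp [e, beq_iff]⟩

instance instFinite : Finite Mo :=
  Finite.of_injective (fun g : Mo => ((⟨g.a, g.ok.a_lt⟩, ⟨g.x, g.ok.x_lt⟩) : Fin (2 ^ 25) × Fin (2 ^ 25)))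
    fun _ _ e => ext (congrArg (·.1.val) e) (congrArg (·.2.val) e)

end Mo

/-- the element with given codes -/
def mo (a x y : ℕ) (h : okB a x y = true := by decide +kernel) : Mo := ⟨a, x, y, Ok.of h⟩

theorem ee_ok : ∀ i j : Fin 5, okB (2 ^ (5 * i + j : ℕ) ^^^ 2 ^ (5 * j + i : ℕ)) o5 o5 = true := by
  decide +kernel

theorem xx_ok : ∀ i j : Fin 5, okB 0 (o5 ||| 2 ^ (5 * i + j : ℕ)) (o5 ||| 2 ^ (5 * i + j : ℕ)) = true := by
  decide +kernel

/-- `e_i ∧ e_j ∈ A` -/
def ee (i j : Fin 5) : Mo := mo _ _ _ (ee_ok i j)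

/-- the transvection `1 + E_ij` of the complement (`1` for `i = j`) -/
def xx (i j : Fin 5) : Mo := mo _ _ _ (xx_ok i j)

/-- the projection to `SL₅(2)` -/
noncomputable def π0 : Mo →* SL5 :=
  MonoidHom.mk' (fun g => slOf g.x g.y g.ok.inv) fun g h => Subtype.ext (g.dec_mul_x h)

theorem coe_π0 (g : Mo) : (π0 g : Matrix _ _ _) = dec g.x := rfl

theorem π0_eq_iff {g h : Mo} : π0 g = π0 h ↔ g.x = h.x :=
  ⟨fun e => dec_inj g.ok.x_lt h.ok.x_lt (congrArg Subtype.val e), fun e => Subtype.ext (congrArg dec e)⟩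

/-- the code of a matrix -/
noncomputable def cd (M : Matrix (Fin 5) (Fin 5) (ZMod 2)) : ℕ := (dec_surj M).choose

theorem cd_lt (M : Matrix (Fin 5) (Fin 5) (ZMod 2)) : cd M < 2 ^ 25 := (dec_surj M).choose_spec.1

theorem dec_cd (M : Matrix (Fin 5) (Fin 5) (ZMod 2)) : dec (cd M) = M := (dec_surj M).choose_spec.2

/-- the element `(M, g)` -/
noncomputable def mk2 (M : Matrix (Fin 5) (Fin 5) (ZMod 2)) (h : Alt M) (g : SL5) : Mo :=
  ⟨cd M, cd g.1, cd g⁻¹.1, cd_lt _, cd_lt _, cd_lt _, by rwa [dec_cd], dec_inj (mu_lt _ _) o5_lt (by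
    rw [dec_mu, dec_cd, dec_cd, dec_o5]
    have := Matrix.SpecialLinearGroup.coe_mul g g⁻¹
    rw [mul_inv_cancel] at this
    exact this.symm)⟩

theorem alt_zero : Alt 0 := ⟨rfl, fun _ => rfl⟩

/-- the complement -/
noncomputable def lv : SL5 →* Mo := MonoidHom.mk' (mk2 0 alt_zero) fun g h => Mo.ext'
  (by rw [Mo.dec_mul_a]; simp [mk2, dec_cd]) (by rw [Mo.dec_mul_x]; simp [mk2, dec_cd])

theorem lv_a (g : SL5) : (lv g).a = 0 := dec_inj (cd_lt _) (by decide) (by rw [dec_zero]; exact dec_cd _)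

theorem dec_lv_x (g : SL5) : dec (lv g).x = g.1 := dec_cd _

theorem π0_lv (g : SL5) : π0 (lv g) = g := Subtype.ext (dec_cd _)

theorem π0_surj : Function.Surjective π0 := fun g => ⟨lv g, π0_lv g⟩

theorem lv_π0 {g : Mo} (h : g.a = 0) : lv (π0 g) = g :=
  Mo.ext (by rw [lv_a, h]) (π0_eq_iff.1 (π0_lv _))

/-- the embedding of the unitriangular group in the complement -/
noncomputable def κ : SylT.UT →* Mo := MonoidHom.mk' (fun u => ⟨nat_lit 0, u.v, u⁻¹.v, by decide, u.val.1,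
  u⁻¹.val.1, by rw [show dec (nat_lit 0) = 0 from dec_zero]; exact alt_zero,
  congrArg SylT.UT.v (mul_inv_cancel u)⟩) fun u v => Mo.ext (by
    change 0 = 0 ^^^ mu (mu u.v 0) (tp u.v); rw [mu_zero_right, mu_zero_left]; rfl) rfl

theorem κ_inj : Function.Injective κ := fun _ _ e => SylT.UT.ext (congrArg Mo.x e)

/-! ### Pattern subgroups -/

/-- the masks `ma` (zero entries of `a`) and `mx` (entries of `x` equal to those of `1`) define a
subgroup -/
def PatOK (ma mx : ℕ) : Prop :=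
  (∀ i k : Fin 5, mx.testBit (5 * i + k) = true → ∀ j : Fin 5,
    (mx.testBit (5 * i + j) = true ∧ i ≠ j) ∨ (mx.testBit (5 * j + k) = true ∧ j ≠ k) ∨
      (j = i ∧ j = k)) ∧
  ∀ i k : Fin 5, ma.testBit (5 * i + k) = true → ∀ j l : Fin 5,
    ma.testBit (5 * j + l) = true ∨ j = l ∨ (mx.testBit (5 * i + j) = true ∧ i ≠ j) ∨
      (mx.testBit (5 * k + l) = true ∧ k ≠ l)

instance instDecPatOK (ma mx : ℕ) : Decidable (PatOK ma mx) := by unfold PatOK; infer_instance

theorem inv_mem_of {G : Type*} [Group G] [Finite G] {P : G → Prop} (h1 : P 1)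
    (hm : ∀ a b, P a → P b → P (a * b)) {g : G} (hg : P g) : P g⁻¹ := by
  have k : ∀ n, P (g ^ n) := fun n => by
    induction n with
    | zero => simpa using h1
    | succ n ih => rw [pow_succ]; exact hm _ _ ih hg
  have := k (orderOf g - 1)
  have e : g ^ (orderOf g - 1) = g⁻¹ := eq_inv_of_mul_eq_one_left (by
    rw [← pow_succ, Nat.sub_add_cancel (orderOf_pos g), pow_orderOf_eq_one])
  rwa [e] at this

theorem PatOK.mul {ma mx : ℕ} (h : PatOK ma mx) (g k : Mo)
    (hg : g.a &&& ma = 0 ∧ (g.x ^^^ o5) &&& mx = 0) (hk : k.a &&& ma = 0 ∧ (k.x ^^^ o5) &&& mx = 0) :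
    (g * k).a &&& ma = 0 ∧ ((g * k).x ^^^ o5) &&& mx = 0 := by
  rw [and_eq_zero_iff (Mo.ok _).a_lt, xand_eq_zero_iff (Mo.ok _).x_lt] at hg hk ⊢
  refine ⟨fun i j hm => ?_, fun i j hm => ?_⟩
  · rw [Mo.dec_mul_a, Matrix.add_apply, hg.1 i j hm, zero_add, Matrix.mul_apply]
    refine Finset.sum_eq_zero fun l _ => ?_
    rw [Matrix.mul_apply, Finset.sum_mul]
    refine Finset.sum_eq_zero fun n _ => ?_
    rw [transpose_apply]
    rcases h.2 i j hm n l with c | rfl | c | c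
    · rw [hk.1 n l c]; simp
    · rw [k.ok.alt.2]; simp
    · rw [hg.2 i n c.1, if_neg c.2]; simp
    · rw [hg.2 j l c.1, if_neg c.2]; simp
  · rw [Mo.dec_mul_x, Matrix.mul_apply]
    by_cases e : i = j
    · subst e
      rw [Finset.sum_eq_single i, hg.2 i i hm, hk.2 i i hm]
      · simp
      · intro l _ hl
        rcases h.1 i i hm l with c | c | c
        · rw [hg.2 i l c.1, if_neg c.2]; simp
        · rw [hk.2 l i c.1, if_neg c.2]; simp
        · exact absurd c.1 hl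
      · simp
    · rw [if_neg e]
      refine Finset.sum_eq_zero fun l _ => ?_
      rcases h.1 i j hm l with c | c | c
      · rw [hg.2 i l c.1, if_neg c.2]; simp
      · rw [hk.2 l j c.1, if_neg c.2]; simp
      · exact absurd (c.1.symm.trans c.2) e

/-- pattern subgroups -/
def pat (ma mx : ℕ) (h : PatOK ma mx := by decide +kernel) : Subgroup Mo where
  carrier := {g | g.a &&& ma = 0 ∧ (g.x ^^^ o5) &&& mx = 0}
  one_mem' := ⟨Nat.zero_and _, by rw [Mo.one_x, Nat.xor_self, Nat.zero_and]⟩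
  mul_mem' := h.mul _ _
  inv_mem' := inv_mem_of (P := fun g : Mo => g.a &&& ma = 0 ∧ (g.x ^^^ o5) &&& mx = 0)
    ⟨Nat.zero_and _, by rw [Mo.one_x, Nat.xor_self, Nat.zero_and]⟩ h.mul

theorem mem_pat {ma mx : ℕ} {h : PatOK ma mx} {g : Mo} :
    g ∈ pat ma mx h ↔ g.a &&& ma = 0 ∧ (g.x ^^^ o5) &&& mx = 0 := Iff.rfl

theorem mem_pat' {ma mx : ℕ} {h : PatOK ma mx} {g : Mo} :
    g ∈ pat ma mx h ↔ (∀ i j : Fin 5, ma.testBit (5 * i + j) = true → dec g.a i j = 0) ∧
      ∀ i j : Fin 5, mx.testBit (5 * i + j) = true → dec g.x i j = if i = j then 1 else 0 := by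
  rw [mem_pat, and_eq_zero_iff g.ok.a_lt, xand_eq_zero_iff g.ok.x_lt]

/-- the membership test -/
noncomputable def inP (ma mx a x : ℕ) : Bool :=
  and' (Nat.beq (Nat.land a ma) (nat_lit 0)) (Nat.beq (Nat.land (Nat.xor x o5) mx) (nat_lit 0))

theorem inP_iff {ma mx : ℕ} {h : PatOK ma mx} {g : Mo} : inP ma mx g.a g.x = true ↔ g ∈ pat ma mx h := by
  simp only [inP, and'_eq_true, beq_iff]; rfl

noncomputable instance instDecPat (ma mx : ℕ) (h : PatOK ma mx) (g : Mo) : Decidable (g ∈ pat ma mx h) :=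
  decidable_of_iff _ inP_iff

theorem pat_le {ma mx ma' mx' : ℕ} {h : PatOK ma mx} {h' : PatOK ma' mx'} (e1 : ma &&& ma' = ma')
    (e2 : mx &&& mx' = mx') : pat ma mx h ≤ pat ma' mx' h' := fun g hg =>
  ⟨by rw [← e1, ← Nat.and_assoc, hg.1, Nat.zero_and], by
    rw [← e2, ← Nat.and_assoc, hg.2, Nat.zero_and]⟩

theorem mem_pat_inf {ma mx ma' mx' : ℕ} {h : PatOK ma mx} {h' : PatOK ma' mx'}
    {h'' : PatOK (ma ||| ma') (mx ||| mx')} {g : Mo} (h1 : g ∈ pat ma mx h) (h2 : g ∈ pat ma' mx' h') :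
    g ∈ pat (ma ||| ma') (mx ||| mx') h'' :=
  ⟨by rw [Nat.and_or_distrib_left, h1.1, h2.1]; rfl, by rw [Nat.and_or_distrib_left, h1.2, h2.2]; rfl⟩

/-! ### Enumeration of the Sylow subgroup -/

/-- the alternating code with number `i < 1024` (upper triangle numbered as in `enT`) -/
noncomputable def al (i : ℕ) : ℕ := force (Nat.xor (enT i) o5) fun u => Nat.xor u (tp u)

theorem al_chk : allB 1024 (fun i => force (al i) fun a =>
    and' (okB a o5 o5) (Nat.beq (idxT a) i)) = true := by decide +kernel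

theorem al_spec {i : ℕ} (hi : i < 1024) : Ok (al i) o5 o5 ∧ idxT (al i) = i := by
  have := (allB_iff _ _).1 al_chk i hi
  simp only [force_eq, and'_eq_true, beq_iff] at this
  exact ⟨Ok.of this.1, this.2⟩

theorem idxT_bit (x : ℕ) : ∀ n, (idxT x).testBit n =
    (decide (n < 10) && x.testBit ([1, 2, 3, 4, 7, 8, 9, 13, 14, 19].getD n 0)) := fun n => by
  have e : idxT x = (x >>> 1 &&& 15 ||| x >>> 3 &&& 112) ||| (x >>> 6 &&& 384 ||| x >>> 10 &&& 512) := rfl
  rw [e]
  simp only [Nat.testBit_or, Nat.testBit_and, Nat.testBit_shiftRight]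
  by_cases h : n < 10
  · have k : ∀ n < 10, (Nat.testBit 15 n = decide (n < 4) ∧ Nat.testBit 112 n = decide (4 ≤ n ∧ n < 7)) ∧
        Nat.testBit 384 n = decide (7 ≤ n ∧ n < 9) ∧ Nat.testBit 512 n = decide (n = 9) := by decide
    rw [(k n h).1.1, (k n h).1.2, (k n h).2.1, (k n h).2.2]
    interval_cases n <;> simp
  · have k : ∀ c < 2 ^ 10, c.testBit n = false := fun c hc =>
      Nat.testBit_lt_two_pow (hc.trans_le (Nat.pow_le_pow_right two_pos (by omega)))
    simp [h, k 15 (by decide), k 112 (by decide), k 384 (by decide), k 512 (by decide)]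

theorem idxT_lt (x : ℕ) : idxT x < 1024 :=
  Nat.lt_pow_two_of_testBit (n := 10) _ fun i hi => by rw [idxT_bit]; simp [not_lt.2 hi]

theorem up_of_idx {a b : ℕ} (e : idxT a = idxT b) (i j : Fin 5) (h : i < j) : dec a i j = dec b i j := by
  have k : ∀ n < 10, a.testBit ([1, 2, 3, 4, 7, 8, 9, 13, 14, 19].getD n 0) =
      b.testBit ([1, 2, 3, 4, 7, 8, 9, 13, 14, 19].getD n 0) := fun n hn => by
    simpa [idxT_bit, hn] using congrArg (·.testBit n) e
  obtain ⟨n, hn, r⟩ : ∃ n < 10, [1, 2, 3, 4, 7, 8, 9, 13, 14, 19].getD n 0 = 5 * (i : ℕ) + j := by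
    revert i j; decide
  simp only [dec, of_apply, ← r, k n hn]

theorem al_idx (g : Mo) : al (idxT g.a) = g.a := by
  obtain ⟨k, e⟩ := al_spec (idxT_lt g.a)
  refine dec_inj k.a_lt g.ok.a_lt ?_
  ext i j
  rcases lt_trichotomy i j with l | rfl | l
  · exact up_of_idx e i j l
  · rw [k.alt.2, g.ok.alt.2]
  · rw [← k.alt.1, ← g.ok.alt.1]; exact up_of_idx e j i l

/-- the element of `T` with numbers `i` (for `a`) and `j` (for `x`) -/
noncomputable def ofT (i j : ℕ) : Mo :=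
  ⟨al (i % 1024), (SylT.UT.of j).v, (SylT.UT.of j)⁻¹.v, (al_spec (Nat.mod_lt _ (by decide))).1.a_lt,
    (SylT.UT.of j).val.1, (SylT.UT.of j)⁻¹.val.1, (al_spec (Nat.mod_lt _ (by decide))).1.alt,
    congrArg SylT.UT.v (mul_inv_cancel _)⟩

/-- all 25 bits -/
abbrev fm : ℕ := 33554431
/-- the bits on or below the diagonal -/
abbrev tm : ℕ := 33004641

theorem enT_tm : allB 1024 (fun j => and' (Nat.beq (Nat.land (Nat.xor (enT j) o5) tm) 0)
    (Nat.beq (idxT (enT j)) j)) = true := by decide +kernel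

theorem enT_idx {g : Mo} (h : (g.x ^^^ o5) &&& tm = 0) : enT (idxT g.x) = g.x := by
  have k := (allB_iff _ _).1 enT_tm _ (idxT_lt g.x)
  simp only [and'_eq_true, beq_iff] at k
  have l := (SylT.UT.en_spec (idxT_lt g.x)).1.1.1
  refine dec_inj l g.ok.x_lt ?_
  ext i j
  by_cases c : i < j
  · exact up_of_idx k.2 i j c
  · have b : tm.testBit (5 * i + j) = true := by revert i j; decide
    rw [(xand_eq_zero_iff l _).1 k.1 i j b, (xand_eq_zero_iff g.ok.x_lt _).1 h i j b]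

theorem ofT_idx {g : Mo} (h : (g.x ^^^ o5) &&& tm = 0) : ofT (idxT g.a) (idxT g.x) = g :=
  Mo.ext (by change al (_ % _) = _; rw [Nat.mod_eq_of_lt (idxT_lt _), al_idx]) (by
    change enT (_ % _) = _; rw [Nat.mod_eq_of_lt (idxT_lt _), enT_idx h])

/-- the pattern consists of unitriangular matrices -/
class InT (mx : ℕ) : Prop where
  le : mx &&& tm = tm

theorem InT.tri {ma mx : ℕ} [i : InT mx] {h : PatOK ma mx} {g : Mo} (hg : g ∈ pat ma mx h) :
    (g.x ^^^ o5) &&& tm = 0 := by rw [← i.le, ← Nat.and_assoc, hg.2, Nat.zero_and]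

/-- `p` holds on the pattern subgroup -/
noncomputable def allP (ma mx : ℕ) (p : Mo → Bool) : Bool :=
  allB 1024 fun j => or' (not' (Nat.beq (Nat.land (Nat.xor (enT j) o5) mx) (nat_lit 0)))
    (allB 1024 fun i => or' (not' (Nat.beq (Nat.land (al i) ma) (nat_lit 0))) (p (ofT i j)))

theorem allP_iff {ma mx : ℕ} [InT mx] (h : PatOK ma mx) (p : Mo → Bool) :
    allP ma mx p = true ↔ ∀ g ∈ pat ma mx h, p g = true := by
  simp only [allP, allB_iff, or'_eq_true, not'_eq_true, beq_iff, ← imp_iff_not_or]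
  refine ⟨fun k g hg => ?_, fun k j hj e i hi e' => k _ ⟨?_, ?_⟩⟩
  · have t := InT.tri hg
    have := k _ (idxT_lt g.x) (by rw [enT_idx t]; exact hg.2) _ (idxT_lt g.a)
      (by rw [al_idx]; exact hg.1)
    rwa [ofT_idx t] at this
  · change al (_ % _) &&& _ = _; rw [Nat.mod_eq_of_lt hi]; exact e'
  · change (enT (_ % _) ^^^ _) &&& _ = _; rw [Nat.mod_eq_of_lt hj]; exact e

noncomputable instance (priority := high) instDecAllP (ma mx : ℕ) [InT mx] (h : PatOK ma mx)
    (P : Mo → Prop) [DecidablePred P] : Decidable (∀ g ∈ pat ma mx h, P g) :=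
  decidable_of_iff (allP ma mx (fun g => decide (P g)) = true) (by simp [allP_iff h])

noncomputable instance (priority := high) instDecExP (ma mx : ℕ) [InT mx] (h : PatOK ma mx)
    (P : Mo → Prop) [DecidablePred P] : Decidable (∃ g ∈ pat ma mx h, P g) :=
  decidable_of_iff (¬ ∀ g ∈ pat ma mx h, ¬ P g) (by simp)

noncomputable instance (priority := high + 1) instDecBAll (l : List Mo) (P : Mo → Prop)
    [DecidablePred P] : Decidable (∀ x ∈ l, P x) :=
  decidable_of_iff (allL l (fun x => decide (P x)) = true) (by simp [allL_iff])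

noncomputable instance (priority := high + 1) instDecBEx (l : List Mo) (P : Mo → Prop)
    [DecidablePred P] : Decidable (∃ x ∈ l, P x) :=
  decidable_of_iff (anyL l (fun x => decide (P x)) = true) (by simp [anyL_iff])

noncomputable instance instDecEqv (b x y : Mo) : Decidable (TT.Eqv b x y) := by
  unfold TT.Eqv; infer_instance

theorem card_range_filter (p : ℕ → Bool) : Nat.card {i : ℕ // i < 1024 ∧ p i = true} = cntPow 10 p := by
  rw [cntPow_eq, ← Nat.card_eq_finsetCard]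
  exact Nat.card_congr (Equiv.subtypeEquivRight fun i => by simp)

theorem card_pat {ma mx : ℕ} [InT mx] (h : PatOK ma mx) : Nat.card (pat ma mx h) =
    cntPow 10 (fun i => Nat.beq (Nat.land (al i) ma) 0) *
      cntPow 10 fun j => Nat.beq (Nat.land (Nat.xor (enT j) o5) mx) 0 := by
  rw [← card_range_filter, ← card_range_filter, ← Nat.card_prod]
  refine Nat.card_congr ⟨fun g => (⟨idxT g.1.a, idxT_lt _, by rw [al_idx, beq_iff]; exact g.2.1⟩,
    ⟨idxT g.1.x, idxT_lt _, by rw [enT_idx (InT.tri g.2), beq_iff]; exact g.2.2⟩),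
    fun p => ⟨ofT p.1 p.2, ?_, ?_⟩, fun g => Subtype.ext (ofT_idx (InT.tri g.2)), fun p => ?_⟩
  · change al (_ % _) &&& _ = _; rw [Nat.mod_eq_of_lt p.1.2.1]; exact (beq_iff _ _).1 p.1.2.2
  · change (enT (_ % _) ^^^ _) &&& _ = _
    rw [Nat.mod_eq_of_lt p.2.2.1]; exact (beq_iff _ _).1 p.2.2.2
  · ext
    · change idxT (al (_ % _)) = _; rw [Nat.mod_eq_of_lt p.1.2.1, (al_spec p.1.2.1).2]
    · change idxT (enT (_ % _)) = _; rw [Nat.mod_eq_of_lt p.2.2.1, (SylT.UT.en_spec p.2.2.1).2]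

end Cfsg.Agent.L10
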